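import Cfsg.Agent.ODD.Spor.TitsB
import Cfsg.Agent.TAB.Sm2.Tits

/-!
# ODD: the row `BoxA.tits` (helper86)
-/

set_option autoImplicit false

namespace Cfsg.Agent.ODD.Spor

open Cfsg

/-- **`BoxA.tits`** -/
theorem boxA_tits : RowA fun S _ => Lie.IsoTits S := titsA_of TAB.Sm2.Tits.qa

end Cfsg.Agent.ODD.Spor
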